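import Cfsg.Agent.Spor.MdRu
import Cfsg.Agent.Spor.MdTits
import Cfsg.Agent.Spor.Embed

/-! The Tits group in the point stabiliser of Ru (helper23). -/

set_option Elab.async false
set_option maxRecDepth 100000
set_option exponentiation.threshold 100000

namespace Cfsg.Agent.Spor.MdRu

open Equiv

def renT : List (List ℕ) := [[0, 2, 4, 0, 0, 4, 3, 0], [1, 2, 4, 0, 0, 4, 3, 1], [0, 2, 4, 0, 0, 4, 3, 1], [0, 4, 2, 4, 1, 4, 0, 0, 4], [4, 0, 0, 4, 0, 4, 3, 4, 1], [1, 4, 0, 3, 1, 4, 0, 5, 0, 4, 0, 2, 1, 4, 0]]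

theorem tits : ∃ T : Subgroup H, IsSimpleGroup T ∧ Nat.card T = 17971200 := by
  obtain ⟨ρ, h1, -, h2⟩ := MdTits.model.inj (b := renG g renT) (renG_255 _ (by decide))
    (renG_rels (rep.ev_eq_one inj (by decide +kernel) (ev_eq_one_of_chkId (L := 12) rep.ok (by decide) (by decide +kernel))))
    (w := [0]) (by decide) (by rw [ev_renG]; exact rep.ne_one (p := 1) (q := 464) (by decide +kernel) (by decide +kernel) (by decide))
  obtain ⟨K, ⟨e⟩⟩ := exists_sub_of_inj ρ h1 (H := H) (by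
    rw [h2, show List.range 6 = List.range renT.length from rfl, genL_renG]
    exact fun a ha => (stab a).2 (fix_of_chkClosed rep.ok (ws := renT) (by decide +kernel)
      (rep.map_genW (ws := renT) (by decide +kernel) ▸ Subgroup.mem_map_of_mem φ ha)))
  exact ⟨K, simple_card_congr ⟨MdTits.simple, MdTits.card⟩ e⟩

end Cfsg.Agent.Spor.MdRu
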