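import Cfsg.Agent.Spor.Model
import Cfsg.Agent.Spor.J.M110
import Cfsg.Agent.Spor.J.M111
import Cfsg.Agent.Spor.J.M11C

/-! Model of M11 on 11 points (generated certificate, helper23). -/

set_option Elab.async false
set_option maxRecDepth 100000
set_option exponentiation.threshold 100000

namespace Cfsg.Agent.Spor.MdM11

open Equiv

/-- The model. -/
noncomputable abbrev G : Type := MG JM111.nets 5

/-- The letters. -/
noncomputable abbrev g : ℕ → G := mg JM111.nets 5

theorem he : g 255 = 1 := mg_255 _ (by decide)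

/-- The permutation representation of degree 11. -/
noncomputable abbrev φ : G →* Perm ℕ := (MG JM111.nets 5).subtype

theorem rep : PermRep g JM111.nets 11 5 φ := mrep JM111.ok _

theorem inj : Function.Injective φ := Subtype.val_injective

theorem hg : ∀ r ∈ JM111.rels, ev g r = 1 := rep.ev_eq_one inj (by decide +kernel) JM111.hP

/-- The point stabiliser. -/
noncomputable abbrev H : Subgroup G := genW g JM111.subs

theorem stab : IsStab φ H 0 :=
  rep.isStab (by decide +kernel) (by decide +kernel) (JM111.mem he hg rep.hφ)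

theorem mapH : H.map φ = genW (PP JM111.nets) JM111.subs := rep.map_genW (by decide +kernel)


theorem otr : OrbSub (genW (PP JM111.nets) (sing (List.range 5))) 0 (ivl 0 11) :=
  (orbSub_base _ _).run JM111.ok (prog := [4, 3, 0, 3, 4, 0, 0]) (by decide +kernel)

theorem trans : Trans φ 11 0 := rep.trans (by decide) otr

theorem index : H.index = 11 := rep.index_eq stab trans

noncomputable def A0 : ℕ := (nat_lit 0x7fe)

theorem o0 : OrbSub (genW (PP JM111.nets) JM111.subs) 1 A0 :=
  (orbSub_base _ _).run JM111.ok (prog := [0, 1, 0, 0, 1]) (by decide +kernel)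

theorem cl0 : chkClosed JM111.nets JM111.subs A0 = true := by decide +kernel

theorem pop0 : chkPop 4 A0 10 = true := by decide +kernel

theorem orb0 : IsOrb (H.map φ) (1, A0, 10) := by
  rw [mapH]; exact isOrb_of_chk JM111.ok o0 (by decide +kernel) cl0 pop0

theorem coatom : IsCoatom H :=
  rep.isCoatom stab trans (by decide) (orbs := [(1, A0, 10)])
    (by simp only [List.forall_mem_cons, List.not_mem_nil, IsEmpty.forall_iff, implies_true, and_true]
        exact orb0) (by decide +kernel) (ns := [10]) rfl (by decide +kernel)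

theorem up (G : Type) [Group G] (g : ℕ → G) (_ : g 255 = 1) (hg : ∀ r ∈ JM111.rels, ev g r = 1) :
    CardLe (genW g (sing (List.range 5))) 7920 :=
  have u0 : CardLe (genW g [[0], [1], [2], [3]]) 720 :=
    (cardLe_genW_nil g).job (JM110.relIndex_le (renG_255 g (by decide)) (renG_rels (rels_of_sub hg (by decide +kernel))))
      (by decide +kernel) rfl (by decide)
  have u1 : CardLe (genW g [[0], [1], [2], [3], [4]]) 7920 :=
    (u0).job (JM111.relIndex_le (renG_255 g (by decide)) (renG_rels (rels_of_sub hg (by decide +kernel))))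
      (by decide +kernel) rfl (by decide)
  u1

noncomputable def x5 : Net :=
  Net.cons 1 (nat_lit 0x104) <|
  Net.cons 4 (nat_lit 0x6) <|
  Net.cons 8 (nat_lit 0x6) <|
  Net.cons 4 (nat_lit 0x2) <|
  Net.cons 2 (nat_lit 0x120) <|
  Net.cons 1 (nat_lit 0x114) <|
  Net.nil

noncomputable def x6 : Net :=
  Net.cons 1 (nat_lit 0x54) <|
  Net.cons 2 (nat_lit 0x100) <|
  Net.cons 4 (nat_lit 0x2) <|
  Net.cons 8 (nat_lit 0x6) <|
  Net.cons 4 (nat_lit 0x2) <|
  Net.cons 2 (nat_lit 0x10) <|
  Net.cons 1 (nat_lit 0x40) <|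
  Net.nil

noncomputable def x7 : Net :=
  Net.cons 4 (nat_lit 0x3) <|
  Net.cons 8 (nat_lit 0x3) <|
  Net.cons 4 (nat_lit 0xb) <|
  Net.cons 2 (nat_lit 0x130) <|
  Net.nil

noncomputable def x8 : Net :=
  Net.cons 1 (nat_lit 0x4) <|
  Net.cons 2 (nat_lit 0x120) <|
  Net.cons 4 (nat_lit 0x2) <|
  Net.cons 8 (nat_lit 0x6) <|
  Net.cons 4 (nat_lit 0x6) <|
  Net.cons 2 (nat_lit 0x30) <|
  Net.cons 1 (nat_lit 0x154) <|
  Net.nil

noncomputable def nets2 : List Net := JM111.nets ++ [x5, x6, x7, x8]

theorem ok2 : netsOk 11 nets2 = true := by decide +kernel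

theorem lo3 : CardGe (genL (PP nets2) [7, 8]) 8 :=
  CardGe.stepL (L := 4) (b := 3) (n := 8) (ys := []) (prog := [0, 1, 0, 0]) ok2 (cardGe_one _)
    (genL_mono _ (by decide)) (by decide +kernel) (by decide +kernel)

theorem lo2 : CardGe (genL (PP nets2) [5, 6]) 72 :=
  CardGe.stepL (L := 4) (b := 2) (n := 9) (ys := [7, 8]) (prog := [1, 0, 0, 1, 1, 0]) ok2 (lo3)
    (genL_le_of_defs (defs := [[6, 5, 5, 6, 5, 6], [6, 5, 5, 6, 6, 5, 5, 5, 6]]) (by decide +kernel) rfl
      (ev_eq_of_chkEq (L := 4) ok2 (by decide) (by decide +kernel))) (by decide +kernel) (by decide +kernel)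

theorem lo1 : CardGe (genL (PP nets2) [0, 1, 2, 3]) 720 :=
  CardGe.stepL (L := 4) (b := 1) (n := 10) (ys := [5, 6]) (prog := [0, 2, 0, 0, 2]) ok2 (lo2)
    (genL_le_of_defs (defs := [[0, 0, 3, 1, 1], [3, 1, 2, 2, 1]]) (by decide +kernel) rfl
      (ev_eq_of_chkEq (L := 4) ok2 (by decide) (by decide +kernel))) (by decide +kernel) (by decide +kernel)

theorem lo0 : CardGe (genL (PP nets2) (List.range 5)) 7920 :=
  CardGe.stepL (L := 4) (b := 0) (n := 11) (ys := [0, 1, 2, 3]) (prog := [4, 0, 2, 0, 0, 2]) ok2 (lo1)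
    (genL_mono _ (by decide)) (by decide +kernel) (by decide +kernel)

theorem card : Nat.card G = 7920 := ((rep.append rfl ok2).card_eq (up _ g he hg) lo0).1

theorem pw : ev g [3, 4, 0] ^ 11 = 1 := by
  rw [← ev_powW]
  exact rep.ev_eq_one inj (ws := [powW [3, 4, 0] 11]) (by decide +kernel)
    (ev_eq_one_of_chkId (L := 4) JM111.ok (by decide) (by decide +kernel)) _ List.mem_cons_self

theorem cardH : Nat.card H = 720 := card_of_index index card (by decide) (by decide)

theorem ncl : Subgroup.normalClosure {ev g [3, 4, 0]} = ⊤ :=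
  normalClosure_eq_top rep.top (genW_le_of_seeds (JM11C.seedsOk (quoG_255 he _)
    (rels_of_sub (quoG_rels hg _) (by decide +kernel)) (subs_basePt _ _)) (by decide +kernel))

theorem simple : IsSimpleGroup G :=
  rep.isSimpleGroup stab trans inj coatom pw (by rw [cardH]; decide +kernel) ncl

theorem model : Model g 5 7920 JM111.rels := ⟨simple, card, rep.top, he, hg, up⟩

end Cfsg.Agent.Spor.MdM11
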