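import Cfsg.Agent.Spor.ONL37
import Cfsg.Agent.Spor.MdJ1
import Cfsg.Agent.Spor.MdM11
import Cfsg.Prelude.Def_Sporadic

/-! J1 and M11 are subgroups of ON (helper23). -/

set_option Elab.async false
set_option maxRecDepth 100000
set_option exponentiation.threshold 100000

namespace Cfsg.Agent.Spor.ONM

open Equiv

def renJ1 : List (List ℕ) := [[3, 2, 5, 4, 3, 5, 4, 3, 2, 5, 6, 5, 4, 3, 5, 4, 6, 5, 7, 6, 5, 4, 3, 1, 3, 4, 5, 4, 3, 6, 0, 5, 6, 0, 5, 4, 5], [2, 3, 6, 5, 4, 3, 5, 4, 3, 6, 5, 4, 3, 5, 4, 3, 5, 6, 5, 4, 3, 7, 6, 5, 1, 6, 5, 4, 5, 0], [3, 5, 4, 3, 2, 5, 6, 5, 4, 5, 4, 3, 6, 5, 4, 5, 4, 6, 5, 4, 3, 5, 4, 5, 4, 6, 1, 3, 4, 5, 4, 6, 0, 5, 6, 0, 3, 4, 5, 1, 6, 1], [5, 4, 3, 5, 4, 3, 5, 6, 5, 4, 3, 2, 5, 4, 3, 6, 5, 4, 3, 5, 4,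 6, 5, 4, 3, 2, 5, 4, 3, 5, 6, 5, 1, 3, 4, 6, 0, 5, 4, 3, 1, 3, 5, 6, 0]]

theorem subJ1 : ∃ K : Subgroup Cfsg.Spor.ON, Cfsg.IsJ1 K :=
  ⟨_, MdJ1.model.sub (renG_255 _ (by decide)) ((pa0.ren renJ1).rels (by decide +kernel)) (w := [0])
    (by decide) ((pa0.ren renJ1).ne_one 0 (by decide) (by decide +kernel))⟩

def renM11 : List (List ℕ) := [[2, 3, 2, 7, 6, 5, 4, 3, 5, 4, 6, 5, 4, 3, 2, 5, 4, 3, 6, 5, 4, 7, 6, 5, 1, 3, 0, 4, 5, 4, 3, 1, 6, 5, 1, 4, 6], [2, 5, 4, 3, 2, 5, 4, 3, 5, 4, 5, 6, 5, 4, 3, 5, 4, 5, 7, 6, 5, 4, 3, 5, 4, 6, 5, 1, 3, 4, 3, 5, 4, 3, 6, 0, 5, 6, 5, 4], [3, 2, 5, 4, 5, 6, 5, 4, 3, 2, 5, 4, 5, 6, 5, 4, 3, 5, 4, 7, 6, 1, 3, 4, 5, 4, 6, 0, 3, 0, 5, 4, 3, 1], [2, 5, 4, 3, 2, 5, 4, 7, 6, 5, 4, 3, 5, 4, 6, 5, 4, 3, 5, 4,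 6, 5, 4, 3, 5, 4, 1, 3, 6, 5, 0, 4, 3, 5, 0, 6], [3, 4, 5, 7, 6, 5, 4, 3, 5, 4, 3, 6, 5, 4, 3, 2, 7, 6, 5, 4, 3, 2, 5, 4, 3, 1, 3, 5, 6, 5, 4, 5, 4, 6, 5, 1, 6, 7]]

theorem subM11 : ∃ K : Subgroup Cfsg.Spor.ON, Cfsg.IsM11 K :=
  ⟨_, MdM11.model.sub (renG_255 _ (by decide)) ((pa0.ren renM11).rels (by decide +kernel)) (w := [0])
    (by decide) ((pa0.ren renM11).ne_one 0 (by decide) (by decide +kernel))⟩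


end Cfsg.Agent.Spor.ONM
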