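import Cfsg.Agent.Spor.EqJ3

/-! The triple cover of J3 in `SU(9, 2)` (helper23). -/

set_option Elab.async false
set_option maxRecDepth 100000
set_option exponentiation.threshold 100000

namespace Cfsg.Agent.Spor.EqJ3

open Equiv

theorem mr9 : MatRep (dec4 5 (Equiv.refl (Fin 9)) As) 5 31 2 (9 * 2) As 5 (phi4 (Equiv.refl (Fin 9))) :=
  matRep_dec4 _ (by decide +kernel) (by decide +kernel) _

theorem hA : ∀ x < 5, Matrix.transpose (dec4 5 (Equiv.refl (Fin 9)) As x) *
    (dec4 5 (Equiv.refl (Fin 9)) As x).map F4.frob = 1 := by decide +kernel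

theorem hz9 : dec4 5 (Equiv.refl (Fin 9)) As 4 = Matrix.scalar _ F4.ω := by decide +kernel

theorem su9 : ∃ H : Subgroup (Cfsg.SU 9 F4 2), Nat.card (Subgroup.center H) = 3 ∧
    Nonempty (MdJ3.G ≃* H ⧸ Subgroup.center H) := by
  have h2 := mr9.ev_eq_one (ws := [[0, 0], [1, 1], [2, 2], [3, 3]]) (by decide +kernel) (by decide +kernel)
  have hd : ∀ x < 5, (dec4 5 (Equiv.refl (Fin 9)) As x).det = 1 := fun x hx => by
    rcases Nat.lt_succ_iff_lt_or_eq.1 hx with hx | rfl
    · exact F4.det_eq_one_of_sq (by simpa using h2 [x, x] (by interval_cases x <;> decide))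
    · rw [hz9, Matrix.scalar_apply, Matrix.det_diagonal]; decide +kernel
  have hx : ∀ x < 5, ∃ c, ((Cfsg.slToMat 9 F4).comp (Cfsg.SU 9 F4 2).subtype) c =
      dec4 5 (Equiv.refl (Fin 9)) As x := fun x hx =>
    ⟨⟨⟨_, hd x hx⟩, herm_of_mul F4.frob F4.frob_apply (hA x hx)⟩, rfl⟩
  have hi : Function.Injective ((Cfsg.slToMat 9 F4).comp (Cfsg.SU 9 F4 2).subtype) :=
    Subtype.val_injective.comp Subtype.val_injective
  have m3 := mr9.lift _ hi hx
  have h := (map_liftG (nl := 5) (by decide) (hx 4 (by decide))).trans hz9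
  have := MdJ3.model.cover_sub (liftG_255 _ _ (by decide)) (center_of_scalar _ hi h)
    (by decide +kernel) (mem_zpowers_of_pairs (ks := ks) rfl (m3.ev_eq (by decide +kernel) (by decide +kernel)))
    (x := 0) (y := 1) (by decide) (by decide) (m3.ne (by decide) 0 9 (by decide +kernel)) center_eq
  rw [orderOf_of_scalar _ hi h] at this
  exact ⟨_, this⟩

end Cfsg.Agent.Spor.EqJ3
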