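import Cfsg.Agent.Spor.J.Suz2
import Cfsg.Prelude.Def_Spor_Suz
import Cfsg.Agent.Spor.SuzRep

/-! The presented Suzuki group on 22880 points (generated certificate, helper23). -/

set_option maxRecDepth 100000
set_option exponentiation.threshold 100000

namespace Cfsg.Agent.Spor.SuzM2

open Equiv

open SuzM (lts lt g he)

theorem hg : ∀ r ∈ JSuz2.rels, ev g r = 1 := lt.rels_of_relsG (by decide +kernel)

theorem rp : relsP Cfsg.Spor.Suz.edges Cfsg.Spor.Suz.extra lts JSuz2.rels = true := by decide +kernel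

/-- The permutation representation of degree 22880. -/
noncomputable def φ : Cfsg.Spor.Suz →* Perm ℕ := lt.toHom rp JSuz2.hP

theorem rep : PermRep g JSuz2.nets 22880 7 φ := ⟨JSuz2.ok, fun _ hx => lt.toHom_letG rp _ hx, lt.genL_top⟩

/-- The point stabiliser. -/
noncomputable abbrev H : Subgroup Cfsg.Spor.Suz := genW g JSuz2.subs

theorem stab : IsStab φ H 22784 :=
  rep.isStab (by decide +kernel) (by decide +kernel) (JSuz2.mem he hg rep.hφ)

theorem mapH : H.map φ = genW (PP JSuz2.nets) JSuz2.subs := rep.map_genW (by decide +kernel)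

theorem otr : OrbSub (genW (PP JSuz2.nets) (sing (List.range 7))) 22784 (ivl 0 22880) :=
  (orbSub_base _ _).run JSuz2.ok (prog := [4, 3, 2, 1, 0, 5, 3, 4, 2, 6, 1, 0, 2, 5, 3, 4, 2, 1, 0, 2, 5, 3, 2, 4, 6, 1, 0, 2, 5, 3, 4, 2, 1, 0, 2, 5, 1]) (by decide +kernel)

theorem trans : Trans φ 22880 22784 := rep.trans (by decide) otr

theorem index : H.index = 22880 := rep.index_eq stab trans

end Cfsg.Agent.Spor.SuzM2
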