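import Cfsg.Agent.Spor.J.Fi22b
import Cfsg.Prelude.Def_Spor_Fi22
import Cfsg.Agent.Spor.Fi22Rep

/-! The presented group Fi22 on 14080 points (generated certificate, helper23). -/

set_option maxRecDepth 100000
set_option exponentiation.threshold 100000

namespace Cfsg.Agent.Spor.Fi22M2

open Equiv

open Fi22M (lts lt g he)

theorem hg : ∀ r ∈ JFi22b.rels, ev g r = 1 := lt.rels_of_relsG (by decide +kernel)

theorem rp : relsP Cfsg.Spor.Fi22.edges Cfsg.Spor.Fi22.extra lts JFi22b.rels = true := by decide +kernel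

/-- The permutation representation of degree 14080. -/
noncomputable def φ : Cfsg.Spor.Fi22 →* Perm ℕ := lt.toHom rp JFi22b.hP

theorem rep : PermRep g JFi22b.nets 14080 9 φ := ⟨JFi22b.ok, fun _ hx => lt.toHom_letG rp _ hx, lt.genL_top⟩

/-- The point stabiliser. -/
noncomputable abbrev H : Subgroup Cfsg.Spor.Fi22 := genW g JFi22b.subs

theorem stab : IsStab φ H 14016 :=
  rep.isStab (by decide +kernel) (by decide +kernel) (JFi22b.mem he hg rep.hφ)

theorem mapH : H.map φ = genW (PP JFi22b.nets) JFi22b.subs := rep.map_genW (by decide +kernel)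

theorem otr : OrbSub (genW (PP JFi22b.nets) (sing (List.range 9))) 14016 (ivl 0 14080) :=
  (orbSub_base _ _).run JFi22b.ok (prog := [0, 1, 2, 3, 4, 7, 8, 5, 6, 3, 2, 4, 7, 1, 0, 3, 2, 4, 7, 5, 4, 6, 1, 0, 3, 2, 4, 7, 8, 7, 1, 0, 3, 4, 2, 7, 5, 6, 4, 3, 4, 2, 7, 8, 7, 5, 6, 3, 7, 4, 8, 2, 5]) (by decide +kernel)

theorem trans : Trans φ 14080 14016 := rep.trans (by decide) otr

theorem index : H.index = 14080 := rep.index_eq stab trans

end Cfsg.Agent.Spor.Fi22M2
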