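import Cfsg.Agent.Spor.EqL37
import Cfsg.Agent.Spor.Embed
import Cfsg.Agent.Known.ONTab

/-! `PSL(3,7)` has index two in the point stabiliser of ON (helper23). -/

set_option Elab.async false
set_option maxRecDepth 100000
set_option exponentiation.threshold 100000

namespace Cfsg.Agent.Spor.ONM

open Equiv

/-- Pointwise tables for the letters. -/
theorem pa0 : PtAct φ 122760 [4,0,32,120550,122640,122753,122752] Known.ONT.y Known.ONT.act :=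
  ptAct_of_mdl Known.ONT.mdl

def renL : List (List ℕ) := [[2, 3, 4, 7, 6, 5, 4, 3, 2, 5, 4, 3, 5, 6, 5, 4, 3, 5, 4, 5, 6, 5, 4, 7], [4, 5, 7, 6, 5, 4, 3, 2, 5, 4, 3, 5, 4, 6, 5, 4, 3, 2, 5, 4, 3, 5, 6, 7], [2, 4, 3, 2, 5, 4, 5, 6, 5, 4, 3, 2, 5, 4, 3, 2, 5, 6, 5, 4, 3, 5, 4, 5, 7, 6, 5, 4], [2, 4, 5, 4, 6, 5, 4, 3, 2, 5, 4, 3, 5, 6, 5, 4, 3, 2, 5, 4, 5, 6, 5, 4, 3, 2, 5, 4], [2, 3, 4, 3, 6, 5, 4, 3, 2, 5, 4, 3, 6, 5, 4, 3, 5, 4, 3, 6, 5, 4, 3, 7, 6, 5, 4, 5], [5, 4, 3, 5, 4, 3, 6, 5, 4, 3, 7, 6, 5, 4, 3, 2, 5, 4, 3, 6, 5, 4, 3, 5, 4, 3, 2, 6], [3, 2, 6, 5, 4, 5, 4, 3, 6, 5, 4, 3, 5, 4, 5, 7, 6, 5, 4, 3, 5, 6], [3, 7, 6, 5, 4, 3, 5, 4, 3, 5, 6, 5, 4, 3, 5, 4, 3, 6, 5, 4, 3, 5, 6, 7], [5, 4, 3, 6, 5, 4, 3, 2, 5, 4, 3, 6, 5, 4, 3, 5, 4, 6, 5, 4, 3, 2, 7, 6, 5, 4, 3, 5, 6, 7], [3, 2, 7,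 6, 5, 4, 3, 5, 4, 6, 5, 4, 3, 7, 6, 5, 4, 3, 2, 5, 4, 3, 6, 5, 4, 3, 5, 4, 6, 5], [2, 4, 5, 4, 3, 2, 5, 4, 5, 6, 5, 4, 3, 2, 5, 4, 3, 5, 6, 5, 4, 3, 5, 4, 3, 5]]

theorem l37 : ∃ N : Subgroup H, N.Normal ∧ N.index = 2 ∧
    Nonempty (N ≃* Matrix.ProjectiveSpecialLinearGroup (Fin 3) (ZMod 7)) := by
  obtain ⟨e⟩ := MdL37.model.equiv_sub (renG_255 _ (by decide)) ((pa0.ren renL).rels (by decide +kernel)) (w := [0])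
    (by decide) ((pa0.ren renL).ne_one 0 (by decide) (by decide +kernel))
  obtain ⟨e'⟩ := EqL37.equiv
  exact exists_index_two ((pa0.ren renL).genL_le_stab stab (by decide) (by decide +kernel)) (e'.symm.trans e)
    ((Nat.card_congr e'.toEquiv).symm.trans MdL37.card) (cardH.trans (by decide)) (by decide)

end Cfsg.Agent.Spor.ONM
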