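import Cfsg.Agent.Spor.MdL37
import Cfsg.Agent.Spor.MatRep2
import Cfsg.Agent.S0243

/-! The model of PSL(3,7) is the projective special linear group (helper23). -/

set_option Elab.async false
set_option maxRecDepth 100000
set_option exponentiation.threshold 100000

namespace Cfsg.Agent.Spor.EqL37

open Equiv

def As : List (List ℕ) := [[1, 256, 65542],
  [1, 256, 65537],
  [1, 256, 66050],
  [1, 256, 66821],
  [1, 1027, 131586],
  [1, 513, 263429],
  [3, 768, 262913],
  [3, 1025, 197636],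
  [1, 328704, 131077],
  [1, 131588, 262145],
  [328449, 329221, 196608],
  [2, 512, 131072]]

theorem mr : MatRep (decP 8 7 (Equiv.refl (Fin 3)) As) 8 255 7 3 As 12
    (Matrix.reindexRingEquiv (ZMod 7) (Equiv.refl (Fin 3))).toMonoidHom :=
  matRep_decP _ (by decide +kernel) _

theorem hd : ∀ x < 12, (decP 8 7 (Equiv.refl (Fin 3)) As x).det = 1 := by
  simp only [Matrix.det_fin_three]; decide +kernel

theorem hz : decP 8 7 (Equiv.refl (Fin 3)) As 11 = Matrix.scalar _ 2 := by decide +kernel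

theorem equiv : Nonempty (MdL37.G ≃* Matrix.ProjectiveSpecialLinearGroup (Fin 3) (ZMod 7)) := by
  have : Fact (Nat.Prime 7) := ⟨by norm_num⟩
  have hx : ∀ x < 12, ∃ c, Cfsg.slToMat 3 (ZMod 7) c = decP 8 7 (Equiv.refl (Fin 3)) As x := fun x hx =>
    ⟨⟨_, hd x hx⟩, rfl⟩
  have hi : Function.Injective (Cfsg.slToMat 3 (ZMod 7)) := Subtype.val_injective
  have m2 := mr.lift _ hi hx
  have h3 := S0243.result (F := ZMod 7) (q := 7) (by simp) 3 (by decide)
  refine MdL37.model.equiv_quot_center (liftG_255 _ _ (by decide)) (fun r hr => Subgroup.zpowers_le.2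
    (center_of_scalar _ hi ((map_liftG (by decide) (hx 11 (by decide))).trans hz))
    (mem_zpowers_of_pairs (ks := [0, 0, 0, 0, 0, 0, 0, 1, 1, 0, 0, 1, 0, 0, 0, 1, 1, 0, 1, 1, 2, 1, 1, 0, 0, 1, 2, 0, 0]) rfl (m2.ev_eq (by decide +kernel) (by decide +kernel)) r hr))
    (x := 0) (y := 4) (by decide) (m2.ne (by decide) 0 2 (by decide +kernel)) ?_ (by decide)
  exact Nat.eq_of_mul_eq_mul_left (by decide : 0 < 6) (Nat.eq_of_mul_eq_mul_left (by decide : 0 < 3)
    (h3.trans (by decide +kernel)))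

end Cfsg.Agent.Spor.EqL37
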