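import Cfsg.Agent.Spor.MdS44
import Cfsg.Agent.Spor.MatRep2
import Cfsg.Agent.S0245

/-! The model of Sp4(4) is the symplectic group (helper23). -/

set_option Elab.async false
set_option maxRecDepth 100000
set_option exponentiation.threshold 100000

namespace Cfsg.Agent.Spor.EqS44

open Equiv

def As : List (List ℕ) := [[1, 16, 16781568, 268435712, 65536, 1048576, 256, 4096],
  [1, 16, 16777216, 268435456, 65536, 1048576, 285212928, 16781312],
  [16, 17, 268435456, 285212672, 1114113, 65552, 16781568, 268435712],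
  [17, 1, 268435712, 285216768, 1048577, 1114128, 4352, 256],
  [1, 16, 16781569, 268435728, 16846849, 269488400, 285217040, 16777489],
  [286330881, 16847120, 286331136, 16843008, 65536, 1048576, 286261504, 17895424]]

theorem mr : MatRep (dec4 4 finSumFinEquiv As : ℕ → Matrix (Fin 2 ⊕ Fin 2) (Fin 2 ⊕ Fin 2) F4) 4 15 2 ((2 + 2) * 2) As 6
    (phi4 finSumFinEquiv) :=
  matRep_dec4 _ (by decide +kernel) (by decide +kernel) _

theorem hA : ∀ x < 6, dec4 4 finSumFinEquiv As x * Matrix.J (Fin 2) F4 * Matrix.transpose (dec4 4 finSumFinEquiv As x) =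
    Matrix.J (Fin 2) F4 := by decide +kernel

theorem equiv : Nonempty (MdS44.G ≃* Matrix.symplecticGroup (Fin 2) F4) := by
  have m2 := mr.lift (Matrix.symplecticGroup (Fin 2) F4).subtype Subtype.val_injective fun x hx => ⟨⟨_, hA x hx⟩, rfl⟩
  exact MdS44.model.equiv_of_card (liftG_255 _ _ (by decide)) (m2.ev_eq_one (by decide +kernel) (by decide +kernel))
    (w := [0]) (by decide) (m2.ne (s := []) (by decide) 2 3 (by decide +kernel))
    ((S0245.result (F := F4) (q := 4) rfl 2).trans (by decide +kernel)) (by decide)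

end Cfsg.Agent.Spor.EqS44
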